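import Cfsg.Agent.H975.L5.M12
import Cfsg.Agent.H858.L5.SlA
import Cfsg.Agent.H858.L5.SlB
import Cfsg.Agent.H602.L5.Irr

/-!
# S5923, pieces M1 and M2, final form (helper975)
-/

set_option autoImplicit false
set_option linter.unusedVariables false

namespace Cfsg.Agent.H975.L5

open Subgroup Cfsg Cfsg.Lie Cfsg.Lie.ChevalleyDatum
open Cfsg.Agent.H865.L5

/-- M1 : `r = 3` -/
theorem no_three {f : SL35 →* G3} (h : GoodIn ⊤ f) (hf : Function.Injective f) {R : Subgroup G3}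
    (hR : R ≠ ⊥) (h3 : IsPGroup 3 R) (hn : f.range ≤ Subgroup.normalizer (R : Set G3)) : False :=
  no_three_of (fun W hW => Cfsg.Agent.H602.L5.irred h.toGood W hW) hR h3 hn

/-- M2 : `r = 5` -/
theorem no_five {f : SL35 →* G3} (h : GoodIn ⊤ f) (hf : Function.Injective f) {R : Subgroup G3}
    (hR : R ≠ ⊥) (h5 : ∀ x ∈ R, x ^ 5 = 1) (hab : ∀ x ∈ R, ∀ y ∈ R, x * y = y * x)
    (hn : f.range ≤ Subgroup.normalizer (R : Set G3)) : False :=
  no_five_of Cfsg.Agent.H858.L5.card_SL Cfsg.Agent.H858.L5.simple_SL h hf hR h5 hn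

end Cfsg.Agent.H975.L5
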